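import Mathlib

/-!
# The abelian case of Hall–Higman's Theorem B, by averaging (no field extension)

`Γ` acts on the abelian group `V`; `Q ≤ Γ` is a finite abelian subgroup normalized by `x`, of order
invertible on `V`; `y` is a power of every `x ^ i`, `0 < i < N`, and some commutator `[y, a]`, `a ∈ Q`,
acts nontrivially on `V`.  Then the norm `v ↦ ∏_{i < N} x ^ i • v` is not trivial.
-/

set_option autoImplicit false

namespace Cfsg.Agent.Lib.Helper73.HHAbel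

variable {Γ V : Type*} [Group Γ] [CommGroup V] [MulDistribMulAction Γ V]

/-- the `Q`-average of `g` -/
noncomputable def T (Q : Subgroup Γ) [Fintype Q] (g : Γ) (v : V) : V :=
  ∏ q : Q, ((q : Γ)⁻¹ * g * q) • v

variable (Q : Subgroup Γ) [Fintype Q]

theorem T_mul (g : Γ) (v w : V) : T Q g (v * w) = T Q g v * T Q g w := by
  unfold T
  rw [← Finset.prod_mul_distrib]
  exact Finset.prod_congr rfl fun q _ => smul_mul' _ _ _

theorem T_inv (g : Γ) (v : V) : T Q g v⁻¹ = (T Q g v)⁻¹ := by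
  unfold T
  rw [← Finset.prod_inv_distrib]
  exact Finset.prod_congr rfl fun q _ => smul_inv' _ _

theorem T_smul (g : Γ) {b : Γ} (hb : b ∈ Q) (v : V) : T Q g (b • v) = b • T Q g v := by
  unfold T
  rw [Finset.smul_prod']
  refine Fintype.prod_equiv (Equiv.mulRight (⟨b, hb⟩ : Q)) _ _ ?_
  intro q
  simp only [Equiv.coe_mulRight, Subgroup.coe_mul, smul_smul]
  congr 1
  group

theorem T_smul' (hab : ∀ a ∈ Q, ∀ b ∈ Q, a * b = b * a) (g : Γ) {b : Γ} (hb : b ∈ Q)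
    (hgb : g * b * g⁻¹ ∈ Q) (v : V) : T Q g (b • v) = (g * b * g⁻¹) • T Q g v := by
  unfold T
  rw [Finset.smul_prod']
  refine Finset.prod_congr rfl fun q _ => ?_
  rw [smul_smul, smul_smul]
  congr 1
  have h1 : (q : Γ) * b = b * q := hab _ q.2 _ hb
  have h2 : (g * b * g⁻¹) * (q : Γ)⁻¹ = (q : Γ)⁻¹ * (g * b * g⁻¹) :=
    hab _ hgb _ (inv_mem q.2)
  calc (q : Γ)⁻¹ * g * q * b = (q : Γ)⁻¹ * g * (q * b) := by group
    _ = (q : Γ)⁻¹ * g * (b * q) := by rw [h1]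
    _ = ((q : Γ)⁻¹ * (g * b * g⁻¹)) * g * q := by group
    _ = ((g * b * g⁻¹) * (q : Γ)⁻¹) * g * q := by rw [h2]
    _ = _ := by group

theorem conj_pow_mem {g : Γ} (hg : ∀ a ∈ Q, g * a * g⁻¹ ∈ Q) (k : ℕ) :
    ∀ a ∈ Q, g ^ k * a * (g ^ k)⁻¹ ∈ Q := by
  induction k with
  | zero => intro a ha; simpa using ha
  | succ k ih =>
    intro a ha
    have : g ^ (k + 1) * a * (g ^ (k + 1))⁻¹ = g * (g ^ k * a * (g ^ k)⁻¹) * g⁻¹ := by
      rw [pow_succ']; group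
    rw [this]
    exact hg _ (ih a ha)

theorem conj_pow_smul_T (hab : ∀ a ∈ Q, ∀ b ∈ Q, a * b = b * a) {g : Γ}
    (hg : ∀ a ∈ Q, g * a * g⁻¹ ∈ Q) (k : ℕ) :
    ∀ b ∈ Q, ∀ v : V, (g ^ k * b * (g ^ k)⁻¹) • T Q g v = b • T Q g v := by
  induction k with
  | zero => intro b _ v; simp
  | succ k ih =>
    intro b hb v
    have h1 : g ^ (k + 1) * b * (g ^ (k + 1))⁻¹ = g * (g ^ k * b * (g ^ k)⁻¹) * g⁻¹ := by
      rw [pow_succ']; group
    have hb' := conj_pow_mem Q hg k b hb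
    rw [h1, ← T_smul' Q hab g hb' (hg _ hb'), T_smul Q g hb', ih b hb]

theorem T_comm_eq (hab : ∀ a ∈ Q, ∀ b ∈ Q, a * b = b * a) {g : Γ}
    (hg : ∀ a ∈ Q, g * a * g⁻¹ ∈ Q) (k : ℕ) {a : Γ} (ha : a ∈ Q) (v : V) :
    T Q g ((g ^ k * a * (g ^ k)⁻¹ * a⁻¹) • v) = T Q g v := by
  have h1 := conj_pow_mem Q hg k a ha
  rw [T_smul Q g (mul_mem h1 (inv_mem ha)), mul_smul, ← T_smul Q g (inv_mem ha),
    conj_pow_smul_T Q hab hg k a ha, T_smul Q g (inv_mem ha), smul_smul, mul_inv_cancel, one_smul]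

theorem T_one (v : V) : T Q 1 v = v ^ Nat.card Q := by
  unfold T
  simp [Nat.card_eq_fintype_card]

omit [Fintype Q] in
/-- **Hall–Higman Theorem B, abelian case.** -/
theorem norm_ne_one [Finite Q] (hab : ∀ a ∈ Q, ∀ b ∈ Q, a * b = b * a)
    (x : Γ) (hx : ∀ a ∈ Q, x * a * x⁻¹ ∈ Q) (N : ℕ) (hN : 0 < N) (y : Γ)
    (hy : ∀ i, 0 < i → i < N → ∃ k : ℕ, y = (x ^ i) ^ k)
    (hinj : ∀ v : V, v ^ Nat.card Q = 1 → v = 1)
    (a : Γ) (ha : a ∈ Q) (v₀ : V) (hne : (y * a * y⁻¹ * a⁻¹) • v₀ ≠ v₀) :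
    ∃ v : V, ∏ i ∈ Finset.range N, (x ^ i) • v ≠ 1 := by
  classical
  have := Fintype.ofFinite Q
  by_contra hcon
  push Not at hcon
  set w : V := (y * a * y⁻¹ * a⁻¹) • v₀ * v₀⁻¹ with hw
  have hw1 : w ≠ 1 := by
    intro h
    exact hne (mul_inv_eq_one.1 h)
  have hT : ∀ i, 0 < i → i < N → T Q (x ^ i) w = 1 := by
    intro i hi hiN
    obtain ⟨k, hk⟩ := hy i hi hiN
    rw [hw, T_mul, T_inv, hk, T_comm_eq Q hab (conj_pow_mem Q hx i) k ha, mul_inv_cancel]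
  have h1 : ∏ q : Q, (q : Γ)⁻¹ • (∏ i ∈ Finset.range N, (x ^ i) • ((q : Γ) • w)) = 1 := by
    apply Finset.prod_eq_one
    intro q _
    rw [hcon, smul_one]
  have h2 : ∏ q : Q, (q : Γ)⁻¹ • (∏ i ∈ Finset.range N, (x ^ i) • ((q : Γ) • w)) =
      ∏ i ∈ Finset.range N, T Q (x ^ i) w := by
    unfold T
    rw [Finset.prod_comm]
    refine Finset.prod_congr rfl fun q _ => ?_
    rw [Finset.smul_prod']
    refine Finset.prod_congr rfl fun i _ => ?_
    rw [smul_smul, smul_smul]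
  have h3 : ∏ i ∈ Finset.range N, T Q (x ^ i) w = T Q (x ^ 0) w := by
    apply Finset.prod_eq_single 0
    · intro i hi hi0
      exact hT i (Nat.pos_of_ne_zero hi0) (Finset.mem_range.1 hi)
    · intro h
      exact absurd (Finset.mem_range.2 hN) h
  rw [h2, h3, pow_zero, T_one] at h1
  exact hw1 (hinj w h1)

end Cfsg.Agent.Lib.Helper73.HHAbel
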