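import Mathlib
import Cfsg.Agent.Lib.Helper73.HHAbel
import Cfsg.Agent.Lib.Helper63.PLength2
import Cfsg.Agent.Lib.Helper48.PSolvDual
import Cfsg.Agent.Lib.Helper64.FratAut
import Cfsg.Agent.Lib.Helper1.CoprimeSylow
import Cfsg.Agent.Lib.Helper76.PSolvable

/-!
# `p`-soluble groups with abelian Sylow `q`-subgroups (`q ≠ p`): `x ^ p ^ m ∈ O_p(G)` if `O_{p'}(G) = 1`
and the Sylow `p`-subgroups have exponent `p ^ (m + 1)`.
-/

set_option autoImplicit false

namespace Cfsg.Agent.Lib.Helper73.HHAbel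

open Cfsg

section general

variable {Γ : Type*} [Group Γ]

theorem pow_lemma (p m : ℕ) [hp : Fact p.Prime] (x : Γ) (hx : x ^ p ^ (m + 1) = 1) (i : ℕ)
    (hi : 0 < i) (hi' : i < p ^ (m + 1)) : ∃ k : ℕ, x ^ p ^ m = (x ^ i) ^ k := by
  obtain ⟨e, j, hj, rfl⟩ := Nat.exists_eq_pow_mul_and_not_dvd hi.ne' p hp.out.ne_one
  have hj0 : 0 < j := Nat.pos_of_ne_zero (by rintro rfl; simp at hj)
  have he : e ≤ m := by
    have h1 : p ^ e < p ^ (m + 1) := lt_of_le_of_lt (Nat.le_mul_of_pos_right _ hj0) hi'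
    have := (Nat.pow_lt_pow_iff_right hp.out.one_lt).1 h1
    omega
  have hcop : Nat.Coprime j (p ^ (m + 1)) :=
    Nat.Coprime.pow_right _ ((Nat.Prime.coprime_iff_not_dvd hp.out).2 hj).symm
  obtain ⟨j', -, hj'⟩ := Nat.exists_mul_mod_eq_one_of_coprime hcop
    (Nat.one_lt_pow (Nat.succ_ne_zero m) hp.out.one_lt)
  refine ⟨p ^ (m - e) * j', ?_⟩
  have h1 : x ^ (j * j') = x := by
    rw [pow_eq_pow_mod _ hx, hj', pow_one]
  have h2 : p ^ e * j * (p ^ (m - e) * j') = (j * j') * p ^ m := by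
    have : p ^ m = p ^ e * p ^ (m - e) := by rw [← pow_add]; congr 1; omega
    rw [this]; ring
  rw [← pow_mul, h2, pow_mul, h1]

/-- the action of automorphisms on the abelianization -/
noncomputable def abAut (R : Type*) [Group R] : MulAut R →* MulAut (Abelianization R) where
  toFun e := e.abelianizationCongr
  map_one' := abelianizationCongr_refl
  map_mul' a b := (abelianizationCongr_trans b a).symm

theorem abAut_of {R : Type*} [Group R] (e : MulAut R) (r : R) :
    abAut R e (Abelianization.of r) = Abelianization.of (e r) := rfl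

end general

section main

variable {G : Type*} [Group G]

/-- the action of `G` on the abelianization of a normal subgroup -/
noncomputable def Psi (R : Subgroup G) [R.Normal] : G →* MulAut (Abelianization R) :=
  (abAut R).comp MulAut.conjNormal

theorem Psi_of (R : Subgroup G) [R.Normal] (g : G) (r : R) :
    Psi R g (Abelianization.of r) = Abelianization.of (MulAut.conjNormal g r) := rfl

theorem Psi_eq_one_of_mem (R : Subgroup G) [R.Normal] (g : G) (hg : g ∈ R) : Psi R g = 1 := by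
  ext v
  obtain ⟨r, rfl⟩ := QuotientGroup.mk_surjective v
  change Psi R g (Abelianization.of r) = Abelianization.of r
  rw [Psi_of]
  have : MulAut.conjNormal g r = (⟨g, hg⟩ : R) * r * (⟨g, hg⟩ : R)⁻¹ := by
    ext
    simp [MulAut.conjNormal_apply]
  rw [this, map_mul, map_mul, map_inv, mul_comm, inv_mul_cancel_left]

/-- the action of `G ⧸ R` on the abelianization of `R` -/
noncomputable def Psibar (R : Subgroup G) [R.Normal] : G ⧸ R →* MulAut (Abelianization R) :=
  QuotientGroup.lift R (Psi R) (fun g hg => Psi_eq_one_of_mem R g hg)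

theorem Psibar_mk (R : Subgroup G) [R.Normal] (g : G) :
    Psibar R (QuotientGroup.mk' R g) = Psi R g := rfl

theorem mul_pow_formula (R : Subgroup G) [R.Normal] (r : R) (x : G) (n : ℕ) :
    ∃ s : R, ((r : G) * x) ^ n = s * x ^ n ∧
      Abelianization.of s = ∏ i ∈ Finset.range n, ((Psi R x) ^ i) • Abelianization.of r := by
  induction n with
  | zero => exact ⟨1, by simp, by simp⟩
  | succ n ih =>
    obtain ⟨s, hs1, hs2⟩ := ih
    refine ⟨s * MulAut.conjNormal (x ^ n) r, ?_, ?_⟩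
    · rw [pow_succ, hs1, Subgroup.coe_mul, MulAut.conjNormal_apply, pow_succ]
      group
    · rw [map_mul, hs2, Finset.prod_range_succ, ← map_pow, MulAut.smul_def, Psi_of]

theorem Psibar_injective [Finite G] {p : ℕ} [hp : Fact p.Prime] (hsol : IsPSolvable p G)
    (hcore : pPrimeCore p G = ⊥) : Function.Injective (Psibar (pCore p G)) := by
  set R := pCore p G with hR
  have hRp : IsPGroup p R := Cfsg.Agent.Lib.Lead.pCore_isPGroup p G
  have hC : Subgroup.centralizer (R : Set G) ≤ R :=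
    Cfsg.Agent.Lib.Helper76.centralizer_pCore_le hsol hcore
  rw [← MonoidHom.ker_eq_bot_iff, eq_bot_iff, ← Cfsg.Agent.Lib.Lead.pCore_quotient_pCore p G]
  apply Cfsg.Agent.Lib.Lead.le_pCore inferInstance
  rintro ⟨gb, hgb⟩
  obtain ⟨g, rfl⟩ := QuotientGroup.mk'_surjective R gb
  rw [MonoidHom.mem_ker, Psibar_mk] at hgb
  have h1 : MulAut.conjNormal g ∈ Cfsg.Agent.Lib.Helper64.frattiniKer R := by
    intro r
    apply Cfsg.Agent.Lib.Helper2.commutator_le_frattini hRp
    have h2 := Psi_of R g r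
    rw [hgb, MulAut.one_apply] at h2
    have h3 := (QuotientGroup.eq_iff_div_mem (N := commutator R)).1 h2.symm
    rwa [div_eq_mul_inv] at h3
  obtain ⟨k, hk⟩ := Cfsg.Agent.Lib.Helper64.isPGroup_frattiniKer hRp ⟨_, h1⟩
  refine ⟨k, ?_⟩
  have hk' : (MulAut.conjNormal g : MulAut R) ^ p ^ k = 1 := by
    have := congrArg Subtype.val hk
    simpa using this
  rw [← map_pow] at hk'
  have h4 : g ^ p ^ k ∈ R := by
    apply hC
    rw [Subgroup.mem_centralizer_iff]
    intro r hr
    have h5 := congrArg (fun e : MulAut R => ((e ⟨r, hr⟩ : R) : G)) hk'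
    simp only [MulAut.conjNormal_apply, MulAut.one_apply] at h5
    exact (mul_inv_eq_iff_eq_mul.1 h5).symm
  ext
  simp only [Subgroup.coe_pow, Subgroup.coe_one]
  rw [← map_pow]
  exact (QuotientGroup.eq_one_iff _).2 h4

theorem sylow_comm_of_surjective [Finite G] {H : Type*} [Group H] {f : G →* H}
    (hf : Function.Surjective f) {q : ℕ} [Fact q.Prime]
    (h : ∀ Q : Sylow q G, IsMulCommutative (Q : Subgroup G)) (Q : Sylow q H) :
    IsMulCommutative (Q : Subgroup H) := by
  obtain ⟨S, rfl⟩ := Sylow.mapSurjective_surjective hf q Q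
  have hS := h S
  refine ⟨⟨?_⟩⟩
  rintro ⟨a, ha⟩ ⟨b, hb⟩
  obtain ⟨a, ha', rfl⟩ := (Sylow.coe_mapSurjective hf S ▸ ha : a ∈ (S : Subgroup G).map f)
  obtain ⟨b, hb', rfl⟩ := (Sylow.coe_mapSurjective hf S ▸ hb : b ∈ (S : Subgroup G).map f)
  have := congrArg Subtype.val (hS.is_comm.comm (⟨a, ha'⟩ : (S : Subgroup G)) ⟨b, hb'⟩)
  simp only [Subgroup.coe_mul] at this
  ext
  simp only [Subgroup.coe_mul]
  rw [← map_mul, ← map_mul, this]

theorem sylow_exp_of_surjective [Finite G] {H : Type*} [Group H] {f : G →* H}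
    (hf : Function.Surjective f) {p : ℕ} [Fact p.Prime] {N : ℕ}
    (h : ∀ P : Sylow p G, ∀ x ∈ (P : Subgroup G), x ^ N = 1) (P : Sylow p H) :
    ∀ x ∈ (P : Subgroup H), x ^ N = 1 := by
  obtain ⟨S, rfl⟩ := Sylow.mapSurjective_surjective hf p P
  intro x hx
  rw [Sylow.coe_mapSurjective] at hx
  obtain ⟨a, ha, rfl⟩ := hx
  rw [← map_pow, h S a ha, map_one]

/-- an invariant abelian Sylow subgroup of `O_{p'}` not centralized by `y` -/
theorem exists_Q [Finite G] {p : ℕ} [hp : Fact p.Prime] (hsol : IsPSolvable p G)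
    (hcore : pCore p G = ⊥)
    (hab : ∀ (q : ℕ) [Fact q.Prime], q ≠ p → ∀ Q : Sylow q G, IsMulCommutative (Q : Subgroup G))
    (x : G) (e : ℕ) (hx : x ^ p ^ e = 1) (y : G) (hy : y ∈ Subgroup.zpowers x) (hy1 : y ≠ 1) :
    ∃ Q : Subgroup G, (Nat.card Q).Coprime p ∧ (∀ a ∈ Q, ∀ b ∈ Q, a * b = b * a) ∧
      (∀ a ∈ Q, x * a * x⁻¹ ∈ Q) ∧ ∃ a ∈ Q, y * a ≠ a * y := by
  set K := pPrimeCore p G with hK
  have hKc : (Nat.card K).Coprime p := Cfsg.Agent.Lib.Lead.card_pPrimeCore_coprime p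
  have hCK : Subgroup.centralizer (K : Set G) ≤ K :=
    Cfsg.Agent.Lib.Helper48.centralizer_pPrimeCore_le hsol hcore
  set A := Subgroup.zpowers x with hA
  have hAcard : Nat.card A ∣ p ^ e := by
    rw [Nat.card_zpowers]
    exact orderOf_dvd_of_pow_eq_one hx
  have hAK : A ≤ Subgroup.normalizer (K : Set G) := by
    rw [Subgroup.normalizer_eq_top]
    exact le_top
  have hcop : (Nat.card A).Coprime (Nat.card K) :=
    Nat.Coprime.of_dvd_left hAcard (Nat.Coprime.pow_left _ hKc.symm)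
  have hsolv : Group.IsSolvable A ∨ Group.IsSolvable K := Or.inl inferInstance
  by_contra hcon
  push Not at hcon
  set H : Subgroup G := K ⊓ Subgroup.centralizer ({y} : Set G) with hH
  have hHK : H ≤ K := inf_le_left
  have h1 : H.relIndex K = 1 := by
    rw [Nat.eq_one_iff_not_exists_prime_dvd]
    intro r hr hdvd
    have : Fact r.Prime := ⟨hr⟩
    obtain ⟨R, hRK, hRp, hRi, hRn⟩ :=
      Cfsg.Agent.Lib.Helper1.exists_invariant_sylow A K hAK hcop hsolv r
    have hRc : (Nat.card R).Coprime p := Nat.Coprime.of_dvd_left (Subgroup.card_dvd_of_le hRK) hKc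
    have hRH : R ≤ H := by
      by_cases hrp : r = p
      · subst hrp
        obtain ⟨k, hk⟩ := IsPGroup.iff_card.1 hRp
        have : Nat.card R = 1 := by
          rw [hk] at hRc ⊢
          rcases Nat.eq_zero_or_pos k with rfl | hk0
          · simp
          · exact absurd ((Nat.coprime_pow_left_iff hk0 _ _).1 hRc) (by
              rw [Nat.coprime_self]; exact hr.ne_one)
        rw [Subgroup.card_eq_one.1 this]
        exact bot_le
      · obtain ⟨S, hS⟩ := hRp.exists_le_sylow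
        have hSc := hab r hrp S
        intro k hk
        refine Subgroup.mem_inf.mpr ⟨hRK hk, ?_⟩
        rw [Subgroup.mem_centralizer_singleton_iff]
        refine (hcon R hRc ?_ ?_ k hk).symm
        · intro a ha b hb
          have := congrArg Subtype.val
            (hSc.is_comm.comm (⟨a, hS ha⟩ : (S : Subgroup G)) ⟨b, hS hb⟩)
          simpa using this
        · intro a ha
          exact ((Subgroup.mem_normalizer_iff.1 (hRn (Subgroup.mem_zpowers x))) a).1 ha
    apply hRi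
    rw [← Subgroup.relIndex_mul_relIndex R H K hRH hHK]
    exact Dvd.dvd.mul_left hdvd _
  have h2 : K ≤ H := Subgroup.relIndex_eq_one.mp h1
  have h3 : y ∈ K := by
    apply hCK
    rw [Subgroup.mem_centralizer_iff]
    intro k hk
    exact Subgroup.mem_centralizer_singleton_iff.1 (Subgroup.mem_inf.mp (h2 hk)).2
  apply hy1
  have h4 : orderOf y ∣ Nat.card K := by
    have := orderOf_dvd_natCard (⟨y, h3⟩ : K)
    rwa [Subgroup.orderOf_mk] at this
  have h5 : orderOf y ∣ Nat.card A := by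
    have := orderOf_dvd_natCard (⟨y, hy⟩ : A)
    rwa [Subgroup.orderOf_mk] at this
  rw [← orderOf_eq_one_iff]
  exact Nat.eq_one_of_dvd_coprimes hcop h5 h4

/-- **Key step**: if `O_{p'}(G) = 1`, the Sylow `q`-subgroups (`q ≠ p`) are abelian and the Sylow
`p`-subgroups have exponent dividing `p ^ (m + 1)`, then `x ^ p ^ m ∈ O_p(G)` for all `p`-elements. -/
theorem pow_mem_pCore [Finite G] {p : ℕ} [hp : Fact p.Prime] (hsol : IsPSolvable p G)
    (hcore : pPrimeCore p G = ⊥)
    (hab : ∀ (q : ℕ) [Fact q.Prime], q ≠ p → ∀ Q : Sylow q G, IsMulCommutative (Q : Subgroup G))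
    (m : ℕ) (hexp : ∀ P : Sylow p G, ∀ x ∈ (P : Subgroup G), x ^ p ^ (m + 1) = 1)
    (P : Sylow p G) (x : G) (hx : x ∈ (P : Subgroup G)) : x ^ p ^ m ∈ pCore p G := by
  set R := pCore p G with hR
  set π := QuotientGroup.mk' R with hπ
  have hsurj : Function.Surjective π := QuotientGroup.mk'_surjective R
  by_contra hcon
  have hy1 : π x ^ p ^ m ≠ 1 := by
    rw [← map_pow]
    intro h
    exact hcon ((QuotientGroup.eq_one_iff _).1 h)
  have hxN : x ^ p ^ (m + 1) = 1 := hexp P x hx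
  have hxN' : π x ^ p ^ (m + 1) = 1 := by rw [← map_pow, hxN, map_one]
  obtain ⟨Q, hQc, hQab, hQx, a, ha, hya⟩ := exists_Q
    (Cfsg.Agent.Lib.Helper76.isPSolvable_quotient R hsol)
    (Cfsg.Agent.Lib.Lead.pCore_quotient_pCore p G)
    (fun q _ hq => sylow_comm_of_surjective hsurj (hab q hq)) (π x) (m + 1) hxN' (π x ^ p ^ m)
    (Subgroup.pow_mem _ (Subgroup.mem_zpowers _) _) hy1
  have hinj : Function.Injective (Psibar R) := Psibar_injective hsol hcore
  set Ψ := Psibar R with hΨ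
  set y := π x ^ p ^ m with hy
  have hVp : IsPGroup p (Abelianization R) :=
    (Cfsg.Agent.Lib.Lead.pCore_isPGroup p G).to_quotient _
  obtain ⟨v₀, hv₀⟩ : ∃ v₀, (Ψ (y * a * y⁻¹ * a⁻¹)) • v₀ ≠ v₀ := by
    by_contra h
    push Not at h
    have h1 : Ψ (y * a * y⁻¹ * a⁻¹) = 1 := by
      ext v
      exact h v
    have h2 := hinj (h1.trans (map_one Ψ).symm)
    apply hya
    have h3 : y * a = (y * a * y⁻¹ * a⁻¹) * (a * y) := by group
    rw [h3, h2, one_mul]
  obtain ⟨v, hv⟩ := norm_ne_one (Q.map Ψ) (by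
      rintro _ ⟨a, ha, rfl⟩ _ ⟨b, hb, rfl⟩
      rw [← map_mul, ← map_mul, hQab a ha b hb]) (Ψ (π x)) (by
      rintro _ ⟨a, ha, rfl⟩
      rw [← map_inv, ← map_mul, ← map_mul]
      exact Subgroup.mem_map_of_mem _ (hQx a ha)) (p ^ (m + 1)) (pow_pos hp.out.pos _) (Ψ y) (by
      intro i hi hi'
      obtain ⟨k, hk⟩ := pow_lemma p m (π x) hxN' i hi hi'
      exact ⟨k, by rw [hy, hk, map_pow, map_pow]⟩) (by
      intro v hv
      obtain ⟨k, hk⟩ := hVp v
      have h1 : orderOf v ∣ Nat.card (Q.map Ψ) := orderOf_dvd_of_pow_eq_one hv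
      have h2 : orderOf v ∣ p ^ k := orderOf_dvd_of_pow_eq_one hk
      have h3 : (Nat.card (Q.map Ψ)).Coprime (p ^ k) :=
        Nat.Coprime.pow_right _ (Nat.Coprime.of_dvd_left (Subgroup.card_map_dvd Q Ψ) hQc)
      rw [← orderOf_eq_one_iff]
      exact Nat.eq_one_of_dvd_coprimes h3 h1 h2) (Ψ a) (Subgroup.mem_map_of_mem _ ha) v₀ (by
      rw [← map_inv, ← map_inv, ← map_mul, ← map_mul, ← map_mul]
      exact hv₀)
  obtain ⟨r, rfl⟩ := QuotientGroup.mk_surjective v
  obtain ⟨s, hs1, hs2⟩ := mul_pow_formula R r x (p ^ (m + 1))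
  apply hv
  have h1 : (r : G) * x ∈ (P : Subgroup G) :=
    mul_mem (Cfsg.Agent.Lib.Lead.pCore_le_sylow P r.2) hx
  rw [hexp P _ h1, hxN, mul_one] at hs1
  have h2 : s = 1 := by
    ext
    exact hs1.symm
  rw [h2, map_one] at hs2
  exact hs2.symm

end main

end Cfsg.Agent.Lib.Helper73.HHAbel
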