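import Mathlib
import Cfsg.Agent.Lib.Helper1.MinimalNormal
import Cfsg.Agent.Lib.Helper1.CoprimeSylow
import Cfsg.Agent.Lib.Helper67.PTools
import Cfsg.Agent.Lib.Helper63.PLength
import Cfsg.Agent.Lib.Helper76.PSolvable

/-! Solvable groups with one class of involutions and `O(G) = 1`: the involutions form a normal
subgroup centralized by the Sylow `2`-subgroups (piece A of helper63's plan for S3797). -/

set_option autoImplicit false

namespace Cfsg.Agent.Lib.Helper73.OneClass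

theorem exists_V {G : Type*} [Group G] [Finite G] (hsol : Group.IsSolvable G)
    (hO : ∀ N : Subgroup G, N.Normal → Odd (Nat.card N) → N = ⊥)
    (hconj : ∀ x y : G, x ≠ 1 → x ^ 2 = 1 → y ≠ 1 → y ^ 2 = 1 → IsConj x y)
    (h2 : ∃ x : G, x ≠ 1 ∧ x ^ 2 = 1) :
    ∃ V : Subgroup G, V.Normal ∧ (∀ x, x ∈ V ↔ x ^ 2 = 1) ∧ V ≠ ⊥ := by
  obtain ⟨x0, hx0, hx02⟩ := h2
  have : Nontrivial G := ⟨⟨x0, 1, hx0⟩⟩
  obtain ⟨N, hNn, hNne, hmin⟩ := Cfsg.Agent.Lib.Helper1.exists_minimal_normal (G := G)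
  obtain ⟨-, p, hp, hexp⟩ :=
    Cfsg.Agent.Lib.Helper1.minimal_normal_elementary_abelian N inferInstance hNne hmin
  have hp2 : p = 2 := by
    by_contra hne
    apply hNne
    apply hO N hNn
    have : Fact p.Prime := ⟨hp⟩
    obtain ⟨k, hk⟩ := (Cfsg.Agent.Lib.Helper1.isPGroup_of_forall_pow_eq_one hexp).exists_card_eq
    rw [hk]
    exact (hp.odd_of_ne_two hne).pow
  subst hp2
  obtain ⟨⟨u, huN⟩, hu1⟩ := Subgroup.ne_bot_iff_exists_ne_one.1 hNne
  have hu1' : u ≠ 1 := fun h => hu1 (Subtype.ext h)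
  refine ⟨N, hNn, fun x => ⟨hexp x, fun hx => ?_⟩, hNne⟩
  by_cases hx1 : x = 1
  · rw [hx1]; exact N.one_mem
  · obtain ⟨g, hg⟩ := isConj_iff.1 (hconj u x hu1' (hexp u huN) hx1 hx)
    rw [← hg]
    exact hNn.conj_mem u huN g

theorem sylow_centralizes {G : Type*} [Group G] [Finite G] (hsol : Group.IsSolvable G)
    (hO : ∀ N : Subgroup G, N.Normal → Odd (Nat.card N) → N = ⊥)
    (hconj : ∀ x y : G, x ≠ 1 → x ^ 2 = 1 → y ≠ 1 → y ^ 2 = 1 → IsConj x y)
    (h2 : ∃ x : G, x ≠ 1 ∧ x ^ 2 = 1) :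
    ∃ V : Subgroup G, V.Normal ∧ (∀ x, x ∈ V ↔ x ^ 2 = 1) ∧
      ∀ S : Sylow 2 G, ∀ s ∈ S, ∀ v ∈ V, s * v = v * s := by
  obtain ⟨V, hVn, hV, hVne⟩ := exists_V hsol hO hconj h2
  refine ⟨V, hVn, hV, ?_⟩
  set C := Subgroup.centralizer (V : Set G) with hC
  have hCn : C.Normal := inferInstance
  suffices h : ¬ 2 ∣ C.index by
    intro S s hs v hv
    have := Cfsg.Agent.Lib.Helper76.le_of_isPGroup_of_not_dvd_index C h S S.2 hs
    exact (Subgroup.mem_centralizer_iff.1 this v hv).symm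
  by_cases hCtop : C = ⊤
  · rw [hCtop, Subgroup.index_top]
    norm_num
  have hnt : Nontrivial (G ⧸ C) := by
    rw [← not_subsingleton_iff_nontrivial, QuotientGroup.subsingleton_iff]
    exact hCtop
  obtain ⟨r, Nb, hr, hNbn, hNbne, hNbr, -, -⟩ :=
    Cfsg.Agent.Lib.Helper1.exists_normal_pSubgroup_of_solvable (G := G ⧸ C)
  have : Fact r.Prime := ⟨hr⟩
  set N := Nb.comap (QuotientGroup.mk' C) with hN
  have hNn : N.Normal := hNbn.comap _
  have hCN : C ≤ N := by
    intro c hc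
    rw [hN, Subgroup.mem_comap]
    have : QuotientGroup.mk' C c = 1 := (QuotientGroup.eq_one_iff c).2 hc
    rw [this]
    exact Nb.one_mem
  have hNC : ¬ N ≤ C := by
    intro h
    apply hNbne
    rw [eq_bot_iff]
    intro x hx
    obtain ⟨g, rfl⟩ := QuotientGroup.mk'_surjective C x
    exact (QuotientGroup.eq_one_iff g).2 (h hx)
  obtain ⟨k, hk⟩ := hNbr.exists_card_eq
  have hrel : C.relIndex N = r ^ k := by
    rw [hN, Cfsg.Agent.Lib.Helper63.relIndex_comap_mk', hk]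
  let P : Sylow r N := default
  obtain ⟨hRN, hRr, hRi⟩ := Cfsg.Agent.Lib.Helper1.sylow_map_subtype_props P
  have hFr := Sylow.normalizer_sup_eq_top P
  set R := (P : Subgroup N).map N.subtype with hR
  have hNCR : N ≤ C ⊔ R := by
    rw [← Subgroup.relIndex_eq_one]
    have h1 : (C ⊔ R).relIndex N ∣ r ^ k := hrel ▸ Subgroup.relIndex_dvd_of_le_left N le_sup_left
    have h2 : (C ⊔ R).relIndex N ∣ R.relIndex N := Subgroup.relIndex_dvd_of_le_left N le_sup_right
    obtain ⟨j, -, hj⟩ := (Nat.dvd_prime_pow hr).1 h1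
    rcases Nat.eq_zero_or_pos j with rfl | hj0
    · simpa using hj
    · exfalso
      apply hRi
      refine dvd_trans ?_ h2
      rw [hj]
      exact dvd_pow_self r hj0.ne'
  have hfix : ∀ v ∈ V, (∀ x ∈ R, x * v = v * x) → v = 1 := by
    intro v hv hvR
    by_contra hv1
    have h1 : N ≤ Subgroup.centralizer ({v} : Set G) := by
      refine hNCR.trans (sup_le ?_ ?_)
      · intro c hc
        rw [Subgroup.mem_centralizer_singleton_iff]
        exact (Subgroup.mem_centralizer_iff.1 hc v hv).symm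
      · intro x hx
        rw [Subgroup.mem_centralizer_singleton_iff]
        exact hvR x hx
    apply hNC
    intro n hn
    rw [hC, Subgroup.mem_centralizer_iff]
    intro w hw
    by_cases hw1 : w = 1
    · rw [hw1, one_mul, mul_one]
    · obtain ⟨g, hg⟩ := isConj_iff.1 (hconj v w hv1 ((hV v).1 hv) hw1 ((hV w).1 hw))
      have h3 : g⁻¹ * n * g⁻¹⁻¹ ∈ N := hNn.conj_mem n hn g⁻¹
      have h4 := Subgroup.mem_centralizer_singleton_iff.1 (h1 h3)
      rw [inv_inv] at h4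
      rw [← hg]
      calc g * v * g⁻¹ * n = g * (v * (g⁻¹ * n * g)) * g⁻¹ := by group
        _ = g * ((g⁻¹ * n * g) * v) * g⁻¹ := by rw [h4]
        _ = n * (g * v * g⁻¹) := by group
  have hV2 : IsPGroup 2 V := Cfsg.Agent.Lib.Helper1.isPGroup_of_forall_pow_eq_one
    (fun x hx => (hV x).1 hx)
  have hr2 : r ≠ 2 := by
    intro h
    subst h
    obtain ⟨d, hdV, hd1, hd⟩ := Cfsg.Agent.Lib.Helper67.exists_fixed_of_pGroup_normalizes R V hRr hV2
      hVne (by rw [Subgroup.normalizer_eq_top]; exact le_top)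
    apply hd1
    apply hfix d hdV
    intro x hx
    have := hd x hx
    rw [mul_inv_eq_iff_eq_mul] at this
    exact this
  set M := Subgroup.normalizer (R : Set G) with hM
  have hMC : M ⊔ C = ⊤ := by
    rw [eq_top_iff, ← hFr]
    refine sup_le le_sup_left (hNCR.trans (sup_le le_sup_right ?_))
    exact Subgroup.le_normalizer.trans le_sup_left
  have hModd : ¬ 2 ∣ Nat.card M := by
    intro hdvd
    obtain ⟨⟨u, huM⟩, hu⟩ := exists_prime_orderOf_dvd_card' 2 hdvd
    rw [Subgroup.orderOf_mk] at hu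
    have hu2 : u ^ 2 = 1 := by rw [← hu]; exact pow_orderOf_eq_one u
    have huV : u ∈ V := (hV u).2 hu2
    have hu1 : u = 1 := by
      apply hfix u huV
      intro x hx
      have h1 : u * x * u⁻¹ ∈ R := (Subgroup.mem_normalizer_iff.1 huM x).1 hx
      have h2 : u * x * u⁻¹ * x⁻¹ ∈ R := R.mul_mem h1 (R.inv_mem hx)
      have h3 : u * x * u⁻¹ * x⁻¹ ∈ V := by
        have : u * x * u⁻¹ * x⁻¹ = u * (x * u⁻¹ * x⁻¹) := by group
        rw [this]
        exact V.mul_mem huV (hVn.conj_mem _ (V.inv_mem huV) x)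
      obtain ⟨j, hj⟩ := hRr ⟨_, h2⟩
      have hj' : (u * x * u⁻¹ * x⁻¹) ^ r ^ j = 1 := by simpa using congrArg Subtype.val hj
      have h4 : orderOf (u * x * u⁻¹ * x⁻¹) ∣ 2 := orderOf_dvd_of_pow_eq_one ((hV _).1 h3)
      have h5 : orderOf (u * x * u⁻¹ * x⁻¹) ∣ r ^ j := orderOf_dvd_of_pow_eq_one hj'
      have h6 : Nat.Coprime 2 (r ^ j) :=
        Nat.Coprime.pow_right _ ((Nat.coprime_primes Nat.prime_two hr).2 (Ne.symm hr2))
      have h7 : u * x * u⁻¹ * x⁻¹ = 1 := by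
        rw [← orderOf_eq_one_iff]
        exact Nat.eq_one_of_dvd_coprimes h6 h4 h5
      have h8 : u * x = (u * x * u⁻¹ * x⁻¹) * (x * u) := by group
      rw [h8, h7, one_mul]
    rw [hu1, orderOf_one] at hu
    norm_num at hu
  intro hdvd
  apply hModd
  refine dvd_trans hdvd ?_
  rw [← Subgroup.relIndex_top_right, ← hMC, Subgroup.relIndex_sup_right]
  exact Subgroup.relIndex_dvd_card C M

end Cfsg.Agent.Lib.Helper73.OneClass
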