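import Mathlib
import Cfsg.Agent.Lib.Helper15.Ward.Defs
import Cfsg.Agent.Lib.Helper1.MinimalNormal

/-! # Ward farm (S3796), piece E1: structure of a solvable minimal normal subgroup -/

set_option autoImplicit false

namespace Cfsg.Agent.Lib.Helper73.Ward

open Subgroup

theorem minimal_normal_structure {Γ : Type*} [Group Γ] [Finite Γ] (V : Subgroup Γ) [V.Normal]
    (hsol : Group.IsSolvable V) (hV1 : V ≠ ⊥)
    (hmin : ∀ M : Subgroup Γ, M.Normal → M ≤ V → M = ⊥ ∨ M = V) :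
    (∀ x ∈ V, ∀ y ∈ V, x * y = y * x) ∧ ∃ r : ℕ, r.Prime ∧ ∀ x ∈ V, x ^ r = 1 := by
  obtain ⟨h1, h2⟩ := Cfsg.Agent.Lib.Helper1.minimal_normal_elementary_abelian V hsol hV1 hmin
  refine ⟨fun x hx y hy => ?_, h2⟩
  have := h1.is_comm.comm ⟨x, hx⟩ ⟨y, hy⟩
  exact congrArg Subtype.val this

end Cfsg.Agent.Lib.Helper73.Ward
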