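import Mathlib

set_option autoImplicit false

/-! The Heisenberg group of order `p ^ 3` and homomorphisms out of it. -/

namespace Cfsg.Agent.Lib.Helper73

/-- the Heisenberg group over `ZMod p` -/
@[ext] structure Heis (p : ℕ) where
  a : ZMod p
  b : ZMod p
  c : ZMod p

namespace Heis

variable {p : ℕ}

instance instMulHeis : Mul (Heis p) := ⟨fun u v => ⟨u.a + v.a, u.b + v.b, u.c + v.c + u.b * v.a⟩⟩
instance instOneHeis : One (Heis p) := ⟨⟨0, 0, 0⟩⟩
instance instInvHeis : Inv (Heis p) := ⟨fun u => ⟨-u.a, -u.b, -u.c + u.b * u.a⟩⟩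

theorem mul_a (u v : Heis p) : (u * v).a = u.a + v.a := rfl
theorem mul_b (u v : Heis p) : (u * v).b = u.b + v.b := rfl
theorem mul_c (u v : Heis p) : (u * v).c = u.c + v.c + u.b * v.a := rfl
theorem one_a : (1 : Heis p).a = 0 := rfl
theorem one_b : (1 : Heis p).b = 0 := rfl
theorem one_c : (1 : Heis p).c = 0 := rfl
theorem inv_a (u : Heis p) : (u⁻¹).a = -u.a := rfl
theorem inv_b (u : Heis p) : (u⁻¹).b = -u.b := rfl
theorem inv_c (u : Heis p) : (u⁻¹).c = -u.c + u.b * u.a := rfl

instance instGroupHeis : Group (Heis p) where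
  mul_assoc u v w := by
    ext
    · simp only [mul_a]; ring
    · simp only [mul_b]; ring
    · simp only [mul_a, mul_b, mul_c]; ring
  one_mul u := by
    ext
    · simp only [mul_a, one_a]; ring
    · simp only [mul_b, one_b]; ring
    · simp only [mul_c, one_c, one_b]; ring
  mul_one u := by
    ext
    · simp only [mul_a, one_a]; ring
    · simp only [mul_b, one_b]; ring
    · simp only [mul_c, one_c, one_a]; ring
  inv_mul_cancel u := by
    ext
    · simp only [mul_a, inv_a, one_a]; ring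
    · simp only [mul_b, inv_b, one_b]; ring
    · simp only [mul_c, inv_c, inv_b, one_c]; ring

end Heis

section Hom

variable {P : Type*} [Group P]

theorem comm_pow_right {x y w : P} (h : y * x = x * y * w) (hwx : w * x = x * w) (A : ℕ) :
    y * x ^ A = x ^ A * y * w ^ A := by
  induction A with
  | zero => simp
  | succ A ih =>
    have hc : w ^ A * x = x * w ^ A := (Commute.pow_left hwx A).eq
    calc y * x ^ (A + 1) = (y * x ^ A) * x := by rw [pow_succ, mul_assoc]
      _ = x ^ A * y * (w ^ A * x) := by rw [ih]; simp only [mul_assoc]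
      _ = x ^ A * (y * x) * w ^ A := by rw [hc]; simp only [mul_assoc]
      _ = x ^ (A + 1) * y * w ^ (A + 1) := by
        rw [h, pow_succ, pow_succ']; simp only [mul_assoc]

theorem comm_pow_left {x y w : P} (h : y * x = x * y * w) (hwy : w * y = y * w) (B : ℕ) :
    y ^ B * x = x * y ^ B * w ^ B := by
  induction B with
  | zero => simp
  | succ B ih =>
    have hc : w * y ^ B = y ^ B * w := (Commute.pow_right hwy B).eq
    calc y ^ (B + 1) * x = y * (y ^ B * x) := by rw [pow_succ', mul_assoc]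
      _ = (y * x) * y ^ B * w ^ B := by rw [ih]; simp only [mul_assoc]
      _ = x * y * (w * y ^ B) * w ^ B := by rw [h]; simp only [mul_assoc]
      _ = x * y ^ (B + 1) * w ^ (B + 1) := by
        rw [hc, pow_succ', pow_succ']; simp only [mul_assoc]

theorem comm_pow_pow {x y w : P} (h : y * x = x * y * w) (hwx : w * x = x * w)
    (hwy : w * y = y * w) (A B : ℕ) : y ^ B * x ^ A = x ^ A * y ^ B * w ^ (B * A) := by
  have h1 := comm_pow_right h hwx A
  have h2 := comm_pow_left h1 ((Commute.pow_left hwy A).eq) B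
  rw [h2, ← pow_mul, mul_comm A B]

theorem heis_mul_x {x y w : P} (h : y * x = x * y * w) (hwc : ∀ g, w * g = g * w) (A B C : ℕ) :
    (x ^ A * y ^ B * w ^ C) * x = x * (x ^ A * y ^ B * w ^ C) * w ^ B := by
  have hwk : ∀ (k : ℕ) (g : P), w ^ k * g = g * w ^ k := fun k g =>
    (Commute.pow_left (hwc g) k).eq
  have key := comm_pow_left h (hwc y) B
  calc (x ^ A * y ^ B * w ^ C) * x
      = x ^ A * (y ^ B * x) * w ^ C := by
        rw [mul_assoc _ (w ^ C) x, hwk]; simp only [mul_assoc]
    _ = (x ^ A * x) * y ^ B * (w ^ B * w ^ C) := by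
        rw [key]; simp only [mul_assoc]
    _ = x * (x ^ A * y ^ B * w ^ C) * w ^ B := by
        rw [← pow_succ, pow_succ', hwk]; simp only [mul_assoc]

theorem heis_y_mul {x y w : P} (h : y * x = x * y * w) (hwc : ∀ g, w * g = g * w) (A B C : ℕ) :
    y * (x ^ A * y ^ B * w ^ C) = (x ^ A * y ^ B * w ^ C) * y * w ^ A := by
  have hwk : ∀ (k : ℕ) (g : P), w ^ k * g = g * w ^ k := fun k g =>
    (Commute.pow_left (hwc g) k).eq
  have key := comm_pow_right h (hwc x) A
  calc y * (x ^ A * y ^ B * w ^ C)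
      = (y * x ^ A) * y ^ B * w ^ C := by simp only [mul_assoc]
    _ = x ^ A * y * (w ^ A * (y ^ B * w ^ C)) := by
        rw [key]; simp only [mul_assoc]
    _ = x ^ A * (y * y ^ B) * w ^ C * w ^ A := by
        rw [hwk]; simp only [mul_assoc]
    _ = x ^ A * y ^ B * (y * w ^ C) * w ^ A := by
        rw [← pow_succ', pow_succ]; simp only [mul_assoc]
    _ = (x ^ A * y ^ B * w ^ C) * y * w ^ A := by
        rw [← hwk C y]; simp only [mul_assoc]

variable {p : ℕ} [hp : Fact p.Prime]

theorem pow_val_add (g : P) (hg : g ^ p = 1) (a b : ZMod p) :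
    g ^ (a + b).val = g ^ a.val * g ^ b.val := by
  rw [ZMod.val_add, ← pow_add, ← pow_eq_pow_mod _ hg]

theorem pow_val_mul (g : P) (hg : g ^ p = 1) (a b : ZMod p) :
    g ^ (a * b).val = g ^ (a.val * b.val) := by
  rw [ZMod.val_mul, ← pow_eq_pow_mod _ hg]

/-- the homomorphism from the Heisenberg group given by `x, y` with `y x = x y w`, `w` central -/
def heisHom (x y w : P) (hx : x ^ p = 1) (hy : y ^ p = 1) (hw : w ^ p = 1)
    (h : y * x = x * y * w) (hwc : ∀ g, w * g = g * w) : Heis p →* P where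
  toFun u := x ^ u.a.val * y ^ u.b.val * w ^ u.c.val
  map_one' := by simp [Heis.one_a, Heis.one_b, Heis.one_c]
  map_mul' u v := by
    rw [Heis.mul_a, Heis.mul_b, Heis.mul_c, pow_val_add x hx, pow_val_add y hy, pow_val_add w hw,
      pow_val_add w hw, pow_val_mul w hw]
    have hwk : ∀ (k : ℕ) (g : P), w ^ k * g = g * w ^ k := fun k g =>
      (Commute.pow_left (hwc g) k).eq
    have key := comm_pow_pow h (hwc x) (hwc y) v.a.val u.b.val
    symm
    calc x ^ u.a.val * y ^ u.b.val * w ^ u.c.val * (x ^ v.a.val * y ^ v.b.val * w ^ v.c.val)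
        = x ^ u.a.val * y ^ u.b.val * (w ^ u.c.val * (x ^ v.a.val * y ^ v.b.val)) * w ^ v.c.val := by
          simp only [mul_assoc]
      _ = x ^ u.a.val * (y ^ u.b.val * x ^ v.a.val) * y ^ v.b.val * w ^ u.c.val * w ^ v.c.val := by
          rw [hwk]; simp only [mul_assoc]
      _ = x ^ u.a.val * x ^ v.a.val * y ^ u.b.val * (w ^ (u.b.val * v.a.val) * y ^ v.b.val)
            * w ^ u.c.val * w ^ v.c.val := by
          rw [key]; simp only [mul_assoc]
      _ = x ^ u.a.val * x ^ v.a.val * (y ^ u.b.val * y ^ v.b.val)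
            * (w ^ (u.b.val * v.a.val) * (w ^ u.c.val * w ^ v.c.val)) := by
          rw [hwk]; simp only [mul_assoc]
      _ = x ^ u.a.val * x ^ v.a.val * (y ^ u.b.val * y ^ v.b.val)
            * (w ^ u.c.val * w ^ v.c.val * w ^ (u.b.val * v.a.val)) := by
          rw [hwk]

theorem heisHom_apply (x y w : P) (hx : x ^ p = 1) (hy : y ^ p = 1) (hw : w ^ p = 1)
    (h : y * x = x * y * w) (hwc : ∀ g, w * g = g * w) (u : Heis p) :
    heisHom x y w hx hy hw h hwc u = x ^ u.a.val * y ^ u.b.val * w ^ u.c.val := rfl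

theorem val_eq_zero_of_pow {w : P} (how : orderOf w = p) (a : ZMod p) (h : w ^ a.val = 1) :
    a = 0 := by
  have h1 : p ∣ a.val := by
    have := orderOf_dvd_of_pow_eq_one h
    rwa [how] at this
  have h2 : a.val < p := ZMod.val_lt a
  have h3 : a.val = 0 := Nat.eq_zero_of_dvd_of_lt h1 h2
  exact (ZMod.val_eq_zero a).mp h3

theorem heisHom_injective (x y w : P) (hx : x ^ p = 1) (hy : y ^ p = 1) (hw : w ^ p = 1)
    (h : y * x = x * y * w) (hwc : ∀ g, w * g = g * w) (how : orderOf w = p) :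
    Function.Injective (heisHom x y w hx hy hw h hwc) := by
  rw [injective_iff_map_eq_one]
  intro u hu
  rw [heisHom_apply] at hu
  have hwk : ∀ (k : ℕ) (g : P), w ^ k * g = g * w ^ k := fun k g =>
    (Commute.pow_left (hwc g) k).eq
  have h1 := heis_mul_x h hwc u.a.val u.b.val u.c.val
  rw [hu, one_mul, mul_one] at h1
  have hb : u.b = 0 := val_eq_zero_of_pow how _ (left_eq_mul.mp h1)
  have h2 := heis_y_mul h hwc u.a.val u.b.val u.c.val
  rw [hu, mul_one, one_mul] at h2
  have ha : u.a = 0 := val_eq_zero_of_pow how _ (left_eq_mul.mp h2)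
  rw [ha, hb] at hu
  simp only [ZMod.val_zero, pow_zero, one_mul] at hu
  have hc : u.c = 0 := val_eq_zero_of_pow how _ hu
  ext
  · exact ha
  · exact hb
  · exact hc

theorem heisHom_range (x y w : P) (hx : x ^ p = 1) (hy : y ^ p = 1) (hw : w ^ p = 1)
    (h : y * x = x * y * w) (hwc : ∀ g, w * g = g * w) :
    (heisHom x y w hx hy hw h hwc).range = Subgroup.closure {x, y} := by
  have hxm : x ∈ Subgroup.closure ({x, y} : Set P) := Subgroup.subset_closure (by simp)
  have hym : y ∈ Subgroup.closure ({x, y} : Set P) := Subgroup.subset_closure (by simp)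
  have hwm : w ∈ Subgroup.closure ({x, y} : Set P) := by
    have : w = (x * y)⁻¹ * (y * x) := by rw [h]; group
    rw [this]
    exact mul_mem (inv_mem (mul_mem hxm hym)) (mul_mem hym hxm)
  have h1 : (1 : ZMod p).val = 1 := ZMod.val_one p
  apply le_antisymm
  · rintro _ ⟨u, rfl⟩
    rw [heisHom_apply]
    exact mul_mem (mul_mem (pow_mem hxm _) (pow_mem hym _)) (pow_mem hwm _)
  · rw [Subgroup.closure_le]
    rintro g (rfl | rfl)
    · exact ⟨⟨1, 0, 0⟩, by rw [heisHom_apply]; simp [h1]⟩
    · exact ⟨⟨0, 1, 0⟩, by rw [heisHom_apply]; simp [h1]⟩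

/-- the isomorphism of the Heisenberg group with `⟨x, y⟩` -/
noncomputable def heisEquiv (x y w : P) (hx : x ^ p = 1) (hy : y ^ p = 1) (hw : w ^ p = 1)
    (h : y * x = x * y * w) (hwc : ∀ g, w * g = g * w) (how : orderOf w = p) :
    Heis p ≃* Subgroup.closure ({x, y} : Set P) :=
  (MonoidHom.ofInjective (heisHom_injective x y w hx hy hw h hwc how)).trans
    (MulEquiv.subgroupCongr (heisHom_range x y w hx hy hw h hwc))

theorem heisEquiv_apply (x y w : P) (hx : x ^ p = 1) (hy : y ^ p = 1) (hw : w ^ p = 1)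
    (h : y * x = x * y * w) (hwc : ∀ g, w * g = g * w) (how : orderOf w = p) (u : Heis p) :
    ((heisEquiv x y w hx hy hw h hwc how u : Subgroup.closure ({x, y} : Set P)) : P)
      = x ^ u.a.val * y ^ u.b.val * w ^ u.c.val := rfl

end Hom

end Cfsg.Agent.Lib.Helper73
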