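import Mathlib

/-! A finite abelian `2`-group whose automorphism group is transitive on involutions is homocyclic
(piece H of helper63's plan for S3797). -/

set_option autoImplicit false

namespace Cfsg.Agent.Lib.Helper73.OneClass

theorem homocyclic_of_trans {A : Type*} [Group A] [Finite A] (hA : IsPGroup 2 A)
    (hc : ∀ x y : A, x * y = y * x)
    (htr : ∀ x y : A, x ≠ 1 → x ^ 2 = 1 → y ≠ 1 → y ^ 2 = 1 → ∃ a : MulAut A, a x = y) :
    ∃ m r : ℕ, Nonempty (A ≃* (Fin r → Multiplicative (ZMod (2 ^ m)))) := by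
  classical
  let _ : CommGroup A := { (inferInstance : Group A) with mul_comm := hc }
  obtain ⟨ι, _, n, hn1, ⟨e⟩⟩ := CommGroup.equiv_prod_multiplicative_zmod_of_finite A
  obtain ⟨k, hk⟩ := hA.exists_card_eq
  have hcard : ∏ i, n i = 2 ^ k := by
    rw [← hk, Nat.card_congr e.toEquiv, Nat.card_pi]
    refine Finset.prod_congr rfl fun i _ => ?_
    exact (Nat.card_zmod (n i)).symm
  have hf : ∀ i, ∃ f : ℕ, n i = 2 ^ f := by
    intro i
    have h1 : n i ∣ 2 ^ k := hcard ▸ Finset.dvd_prod_of_mem n (Finset.mem_univ i)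
    obtain ⟨f, -, hf⟩ := (Nat.dvd_prime_pow Nat.prime_two).1 h1
    exact ⟨f, hf⟩
  choose f hf using hf
  obtain rfl : n = fun i => 2 ^ f i := funext hf
  have hf1 : ∀ i, 1 ≤ f i := by
    intro i
    have := hn1 i
    rcases Nat.eq_zero_or_pos (f i) with h | h
    · simp [h] at this
    · exact h
  rcases isEmpty_or_nonempty ι with hι | hι
  · refine ⟨0, 0, ⟨e.trans ?_⟩⟩
    exact
      { toFun := fun _ => 1
        invFun := fun _ => 1
        left_inv := fun x => Subsingleton.elim _ _
        right_inv := fun x => Subsingleton.elim _ _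
        map_mul' := fun _ _ => Subsingleton.elim _ _ }
  obtain ⟨i₀, -, hi₀⟩ := Finset.exists_max_image (Finset.univ : Finset ι) f Finset.univ_nonempty
  have hfm : ∀ i, f i = f i₀ := by
    let g : ∀ i : ι, ((j : ι) → Multiplicative (ZMod (2 ^ f j))) := fun i =>
      Pi.mulSingle i (Multiplicative.ofAdd (1 : ZMod (2 ^ f i)))
    let t : ∀ i : ι, ((j : ι) → Multiplicative (ZMod (2 ^ f j))) := fun i => g i ^ 2 ^ (f i - 1)
    have hgi : ∀ i (N : ℕ), (g i ^ N) i = Multiplicative.ofAdd ((N : ℕ) : ZMod (2 ^ f i)) := by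
      intro i N
      rw [Pi.pow_apply]
      simp only [g, Pi.mulSingle_eq_same]
      rw [← ofAdd_nsmul, nsmul_one]
    have hti : ∀ i, t i i ≠ 1 := by
      intro i h
      have h1 : ((2 ^ (f i - 1) : ℕ) : ZMod (2 ^ f i)) = 0 := by
        have h0 := hgi i (2 ^ (f i - 1))
        have h' : (g i ^ 2 ^ (f i - 1)) i = 1 := h
        rw [h'] at h0
        exact (Multiplicative.ofAdd.injective h0).symm
      rw [ZMod.natCast_eq_zero_iff] at h1
      have h2 := Nat.le_of_dvd (by positivity) h1
      have h3 : 2 ^ (f i - 1) < 2 ^ f i := Nat.pow_lt_pow_right (by norm_num) (by have := hf1 i; omega)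
      omega
    have hall : ∀ (i : ι) (z : Multiplicative (ZMod (2 ^ f i))) (N : ℕ), f i ≤ N → z ^ 2 ^ N = 1 := by
      intro i z N hN
      have h1 : z ^ 2 ^ f i = 1 := by
        have : (2 ^ f i) • Multiplicative.toAdd z = 0 := by
          rw [nsmul_eq_mul]
          have : ((2 ^ f i : ℕ) : ZMod (2 ^ f i)) = 0 := ZMod.natCast_self _
          rw [this, zero_mul]
        have h2 := congrArg Multiplicative.ofAdd this
        rw [ofAdd_nsmul] at h2
        simpa using h2
      obtain ⟨d, rfl⟩ := Nat.exists_eq_add_of_le hN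
      rw [pow_add, pow_mul, h1, one_pow]
    have ht2 : ∀ i, t i ^ 2 = 1 := by
      intro i
      funext j
      have e1 : t i ^ 2 = g i ^ 2 ^ f i := by
        simp only [t]
        rw [← pow_mul, ← pow_succ]
        congr 2
        have := hf1 i
        omega
      rw [e1, Pi.pow_apply, Pi.one_apply]
      by_cases hj : j = i
      · subst hj
        exact hall j _ _ le_rfl
      · simp only [g, Pi.mulSingle_eq_of_ne hj, one_pow]
    have ht1 : ∀ i, t i ≠ 1 := fun i h => hti i (by rw [h]; rfl)
    intro i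
    by_contra hne
    have hlt : f i < f i₀ := lt_of_le_of_ne (hi₀ i (Finset.mem_univ i)) hne
    obtain ⟨a, ha⟩ := htr (e.symm (t i₀)) (e.symm (t i))
      (fun h => ht1 i₀ (by simpa using h))
      (by rw [← map_pow, ht2, map_one])
      (fun h => ht1 i (by simpa using h))
      (by rw [← map_pow, ht2, map_one])
    have h1 : t i = (e (a (e.symm (g i₀)))) ^ 2 ^ (f i₀ - 1) := by
      rw [← map_pow, ← map_pow, ← map_pow]
      change t i = e (a (e.symm (t i₀)))
      rw [ha, MulEquiv.apply_symm_apply]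
    apply hti i
    rw [h1, Pi.pow_apply]
    exact hall i _ _ (by omega)
  generalize f i₀ = m at hfm
  obtain rfl : f = fun _ => m := funext hfm
  exact ⟨m, Fintype.card ι, ⟨e.trans (MulEquiv.arrowCongr (Fintype.equivFin ι) (MulEquiv.refl _))⟩⟩

end Cfsg.Agent.Lib.Helper73.OneClass
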