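import Mathlib
import Cfsg.Agent.Lib.Helper74.SymAlgDefs
import Cfsg.Agent.Lib.Helper91.SymAlgP1

/-!
# Külshammer: a local symmetric algebra with `dim Z(A) ≤ 4` is commutative (piece R4 for S4648)
-/

set_option autoImplicit false

namespace Cfsg.Agent.Lib.Helper73.SymAlgR4

open Cfsg.Agent.Lib.Helper74.SymAlg Module

section linalg

variable {F V : Type*} [Field F] [AddCommGroup V] [Module F V] [FiniteDimensional F V]

theorem exists_sup_span (U W : Submodule F V) (hUW : U ≤ W) (k : ℕ)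
    (h : finrank F W ≤ finrank F U + (k + 1)) :
    ∃ x ∈ W, finrank F W ≤ finrank F (U ⊔ Submodule.span F {x} : Submodule F V) + k := by
  by_cases hU : U = W
  · refine ⟨0, W.zero_mem, ?_⟩
    rw [Submodule.span_zero_singleton, sup_bot_eq, hU]
    omega
  · obtain ⟨x, hxW, hxU⟩ := SetLike.exists_of_lt (lt_of_le_of_ne hUW hU)
    refine ⟨x, hxW, ?_⟩
    have hlt : U < U ⊔ Submodule.span F {x} := by
      refine lt_of_le_of_ne le_sup_left ?_
      intro he
      apply hxU
      rw [he]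
      exact Submodule.mem_sup_right (Submodule.mem_span_singleton_self x)
    have := Submodule.finrank_lt_finrank_of_lt hlt
    omega

end linalg

variable {F A : Type*} [Field F] [Ring A] [Algebra F A]

/-- the augmentation ideal as a subspace -/
def Jm (π : A →ₐ[F] F) : Submodule F A := LinearMap.ker π.toLinearMap

theorem mem_Jm {π : A →ₐ[F] F} {x : A} : x ∈ Jm π ↔ π x = 0 := LinearMap.mem_ker

theorem sub_mem_Jm (π : A →ₐ[F] F) (a : A) : a - algebraMap F A (π a) ∈ Jm π := by
  rw [mem_Jm, map_sub, AlgHom.commutes]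
  simp

theorem Jm_mul_right (π : A →ₐ[F] F) {j : A} (hj : j ∈ Jm π) (b : A) : j * b ∈ Jm π := by
  rw [mem_Jm] at hj ⊢
  rw [map_mul, hj, zero_mul]

theorem exists_pow_eq_bot [FiniteDimensional F A] (π : A →ₐ[F] F)
    (hJ : ∀ x, π x = 0 ↔ x ∈ Ring.jacobson A) : ∃ n : ℕ, (Jm π) ^ n = ⊥ := by
  have : IsArtinianRing A := IsArtinianRing.of_finite F A
  obtain ⟨k, hk⟩ := IsSemiprimaryRing.isNilpotent (R := A)
  refine ⟨k, ?_⟩
  have key : ∀ k : ℕ, ∀ z ∈ (Jm π) ^ k, z ∈ (Ring.jacobson A) ^ k := by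
    intro k
    induction k with
    | zero =>
      intro z _
      rw [Submodule.pow_zero, Ideal.one_eq_top]
      trivial
    | succ k ih =>
      intro z hz
      rw [pow_succ] at hz
      rw [Submodule.pow_succ]
      refine Submodule.mul_induction_on hz ?_ ?_
      · intro a ha b hb
        exact Ideal.mul_mem_mul (ih a ha) ((hJ b).1 (mem_Jm.1 hb))
      · intro a b ha hb
        exact add_mem ha hb
  rw [eq_bot_iff]
  intro z hz
  have := key k z hz
  rw [hk] at this
  exact this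

theorem eq_bot_of_le_mul {J M : Submodule F A} {n : ℕ} (hn : J ^ n = ⊥) (h : M ≤ M * J) :
    M = ⊥ := by
  have key : ∀ k : ℕ, M ≤ M * J ^ k := by
    intro k
    induction k with
    | zero => rw [pow_zero, mul_one]
    | succ k ih =>
      calc M ≤ M * J := h
        _ ≤ (M * J ^ k) * J := mul_le_mul' ih le_rfl
        _ = M * J ^ (k + 1) := by rw [mul_assoc, pow_succ]
  have := key n
  rw [hn, Submodule.mul_bot] at this
  exact eq_bot_iff.2 this

theorem Jm_mul_le (π : A →ₐ[F] F) : Jm π * Jm π ≤ Jm π :=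
  Submodule.mul_le.2 (fun _ ha b _ => Jm_mul_right π ha b)

/-- a subalgebra covering `J / J²` is everything -/
theorem subalgebra_eq_top (π : A →ₐ[F] F) {n : ℕ} (hn : (Jm π) ^ n = ⊥) (B : Subalgebra F A)
    (h : Jm π ≤ Subalgebra.toSubmodule B ⊔ Jm π * Jm π) : B = ⊤ := by
  set J := Jm π with hJdef
  set Bs := Subalgebra.toSubmodule B with hBs
  set JB := Bs ⊓ J with hJB
  have hJJ : J * J ≤ J := Jm_mul_le π
  have h1 : J ≤ JB ⊔ J * J := by
    intro j hj
    obtain ⟨b, hb, t, ht, rfl⟩ := Submodule.mem_sup.1 (h hj)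
    refine Submodule.mem_sup.2 ⟨b, ⟨hb, ?_⟩, t, ht, rfl⟩
    have : b = (b + t) - t := by abel
    rw [this]
    exact J.sub_mem hj (hJJ ht)
  have hJBJ : JB ≤ J := inf_le_right
  have h2 : ∀ k : ℕ, J ^ (k + 1) ≤ JB ^ (k + 1) ⊔ J ^ (k + 2) := by
    intro k
    induction k with
    | zero => simpa [pow_two] using h1
    | succ k ih =>
      have e1 : JB ^ (k + 1) * J ≤ JB ^ (k + 2) ⊔ J ^ (k + 3) := by
        calc JB ^ (k + 1) * J ≤ JB ^ (k + 1) * (JB ⊔ J * J) := mul_le_mul' le_rfl h1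
          _ = JB ^ (k + 1) * JB ⊔ JB ^ (k + 1) * (J * J) := Submodule.mul_sup _ _ _
          _ ≤ JB ^ (k + 2) ⊔ J ^ (k + 3) := by
              apply sup_le_sup
              · exact le_of_eq (pow_succ _ _).symm
              · calc JB ^ (k + 1) * (J * J) ≤ J ^ (k + 1) * (J * J) :=
                      mul_le_mul' (pow_le_pow_left' hJBJ _) le_rfl
                  _ = J ^ (k + 3) := by rw [← mul_assoc, ← pow_succ, ← pow_succ]
      calc J ^ (k + 1 + 1) = J ^ (k + 1) * J := pow_succ _ _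
        _ ≤ (JB ^ (k + 1) ⊔ J ^ (k + 2)) * J := mul_le_mul' ih le_rfl
        _ = JB ^ (k + 1) * J ⊔ J ^ (k + 2) * J := Submodule.sup_mul _ _ _
        _ ≤ (JB ^ (k + 2) ⊔ J ^ (k + 3)) ⊔ J ^ (k + 3) :=
            sup_le_sup e1 (le_of_eq (pow_succ _ _).symm)
        _ = _ := by rw [sup_assoc, sup_idem]
  have h3 : ∀ k : ℕ, JB ^ (k + 1) ≤ Bs := by
    intro k
    induction k with
    | zero =>
      rw [zero_add, pow_one]
      exact inf_le_left
    | succ k ih =>
      rw [pow_succ]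
      refine Submodule.mul_le.2 (fun a ha b hb => ?_)
      exact B.mul_mem (ih ha) hb.1
  have h4 : ∀ k : ℕ, J ≤ Bs ⊔ J ^ (k + 1) := by
    intro k
    induction k with
    | zero => simp
    | succ k ih =>
      calc J ≤ Bs ⊔ J ^ (k + 1) := ih
        _ ≤ Bs ⊔ (JB ^ (k + 1) ⊔ J ^ (k + 2)) := sup_le_sup le_rfl (h2 k)
        _ ≤ Bs ⊔ J ^ (k + 2) := by
            refine sup_le le_sup_left (sup_le ((h3 k).trans le_sup_left) le_sup_right)
  have h5 : J ≤ Bs := by
    have := h4 n
    rwa [pow_succ, hn, Submodule.bot_mul, sup_bot_eq] at this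
  rw [eq_top_iff]
  intro a _
  have h6 : a = algebraMap F A (π a) + (a - algebraMap F A (π a)) := by abel
  rw [h6]
  exact B.add_mem (B.algebraMap_mem _) (h5 (sub_mem_Jm π a))

/-- if `J` is spanned modulo `J²` by pairwise commuting elements, `A` is commutative -/
theorem comm_of_gen (π : A →ₐ[F] F) {n : ℕ} (hn : (Jm π) ^ n = ⊥) (S : Set A)
    (hS : ∀ a ∈ S, ∀ b ∈ S, a * b = b * a)
    (h : Jm π ≤ Submodule.span F S ⊔ Jm π * Jm π) : ∀ x y : A, x * y = y * x := by
  have h1 : Subalgebra.centralizer F S = ⊤ := by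
    apply subalgebra_eq_top π hn
    refine h.trans (sup_le_sup ?_ le_rfl)
    apply Submodule.span_le.2
    intro a ha
    change a ∈ Subalgebra.centralizer F S
    rw [Subalgebra.mem_centralizer_iff]
    intro b hb
    exact hS b hb a ha
  have h2 : Subalgebra.center F A = ⊤ := by
    apply subalgebra_eq_top π hn
    refine h.trans (sup_le_sup ?_ le_rfl)
    apply Submodule.span_le.2
    intro a ha
    change a ∈ Subalgebra.center F A
    rw [Subalgebra.mem_center_iff]
    intro b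
    have hb : b ∈ Subalgebra.centralizer F S := h1 ▸ Algebra.mem_top
    exact ((Subalgebra.mem_centralizer_iff F).1 hb a ha).symm
  intro x y
  have hx : y ∈ Subalgebra.center F A := h2 ▸ Algebra.mem_top
  exact (Subalgebra.mem_center_iff.1 hx x)

variable (F A) in
/-- the span of all commutators -/
def Km : Submodule F A := Submodule.span F {z | ∃ a b : A, z = a * b - b * a}

theorem comm_mem_Km (a b : A) : a * b - b * a ∈ Km F A := Submodule.subset_span ⟨a, b, rfl⟩

theorem traceForms_eq : traceForms F A = (Km F A).dualAnnihilator := by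
  ext f
  rw [mem_traceForms, Submodule.mem_dualAnnihilator]
  constructor
  · intro hf w hw
    induction hw using Submodule.span_induction with
    | mem z hz =>
      obtain ⟨a, b, rfl⟩ := hz
      rw [map_sub, hf a b, sub_self]
    | zero => exact map_zero f
    | add z w _ _ hz hw => rw [map_add, hz, hw, add_zero]
    | smul c z _ hz => rw [map_smul, hz, smul_zero]
  · intro hf a b
    have := hf _ (comm_mem_Km a b)
    rw [map_sub] at this
    exact sub_eq_zero.1 this

theorem finrank_le_Km [FiniteDimensional F A] {lam : A →ₗ[F] F} (h : IsSymForm lam)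
    (hZ : finrank F (Subalgebra.center F A) ≤ 4) : finrank F A ≤ finrank F (Km F A) + 4 := by
  have h1 := Subspace.finrank_add_finrank_dualAnnihilator_eq (Km F A)
  have h2 := Cfsg.Agent.Lib.Helper91.SymAlgP1.P1 h
  rw [traceForms_eq] at h2
  omega

theorem lam_Km {lam : A →ₗ[F] F} (h : IsSymForm lam) : ∀ z ∈ Km F A, lam z = 0 := by
  have h1 : lam ∈ traceForms F A := h.symm
  rw [traceForms_eq, Submodule.mem_dualAnnihilator] at h1
  exact h1

theorem finrank_Km_lt [FiniteDimensional F A] {lam : A →ₗ[F] F} (h : IsSymForm lam)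
    (M : Submodule F A) (hKM : Km F A ≤ M) {z : A} (hz : z ∈ M) (hlz : lam z ≠ 0) :
    finrank F (Km F A) + 1 ≤ finrank F M := by
  have hlt : Km F A < M := by
    refine lt_of_le_of_ne hKM ?_
    intro he
    rw [← he] at hz
    exact hlz (lam_Km h z hz)
  exact Submodule.finrank_lt_finrank_of_lt hlt

theorem exists_lam_ne {lam : A →ₗ[F] F} (h : IsSymForm lam) (M : Submodule F A)
    (hM : ∀ m ∈ M, ∀ b, m * b ∈ M) (hne : M ≠ ⊥) : ∃ z ∈ M, lam z ≠ 0 := by
  by_contra hcon
  push Not at hcon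
  apply hne
  rw [eq_bot_iff]
  intro m hm
  exact h.nondeg m (fun b => hcon _ (hM m hm b))

theorem ri_mul (M N : Submodule F A) (hN : ∀ n ∈ N, ∀ b, n * b ∈ N) :
    ∀ m ∈ M * N, ∀ b, m * b ∈ M * N := by
  intro m hm b
  refine Submodule.mul_induction_on hm ?_ ?_
  · intro x hx y hy
    rw [mul_assoc]
    exact Submodule.mul_mem_mul hx (hN y hy b)
  · intro x y hx hy
    rw [add_mul]
    exact add_mem hx hy

theorem finrank_eq_Jm [FiniteDimensional F A] (π : A →ₐ[F] F) :
    finrank F A = finrank F (Jm π) + 1 := by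
  have h1 := LinearMap.finrank_range_add_finrank_ker π.toLinearMap
  have h2 : LinearMap.range π.toLinearMap = ⊤ := by
    rw [LinearMap.range_eq_top]
    intro c
    exact ⟨algebraMap F A c, by simp⟩
  rw [h2, finrank_top, finrank_self] at h1
  unfold Jm
  omega

theorem comm_eq (π : A →ₐ[F] F) (a b : A) : a * b - b * a =
    (a - algebraMap F A (π a)) * (b - algebraMap F A (π b)) -
      (b - algebraMap F A (π b)) * (a - algebraMap F A (π a)) := by
  have c1 : algebraMap F A (π a) * b = b * algebraMap F A (π a) := Algebra.commutes _ _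
  have c2 : algebraMap F A (π b) * a = a * algebraMap F A (π b) := Algebra.commutes _ _
  have c3 : algebraMap F A (π a) * algebraMap F A (π b) =
      algebraMap F A (π b) * algebraMap F A (π a) := Algebra.commutes _ _
  linear_combination (norm := noncomm_ring) c1 - c2 - c3

theorem Km_le_J2 (π : A →ₐ[F] F) : Km F A ≤ Jm π * Jm π := by
  apply Submodule.span_le.2
  rintro _ ⟨a, b, rfl⟩
  rw [comm_eq π]
  exact sub_mem (Submodule.mul_mem_mul (sub_mem_Jm π a) (sub_mem_Jm π b))
    (Submodule.mul_mem_mul (sub_mem_Jm π b) (sub_mem_Jm π a))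

theorem mem_J3_left (π : A →ₐ[F] F) {u t : A} (hu : u ∈ Jm π) (ht : t ∈ Jm π * Jm π) :
    u * t ∈ Jm π * (Jm π * Jm π) := Submodule.mul_mem_mul hu ht

theorem mem_J3_right (π : A →ₐ[F] F) {u t : A} (hu : u ∈ Jm π) (ht : t ∈ Jm π * Jm π) :
    t * u ∈ Jm π * (Jm π * Jm π) := by
  rw [← mul_assoc]
  exact Submodule.mul_mem_mul ht hu

theorem smul_comm_eq (x y : A) (a₁ a₂ b₁ b₂ : F) :
    (a₁ • x + a₂ • y) * (b₁ • x + b₂ • y) - (b₁ • x + b₂ • y) * (a₁ • x + a₂ • y) =
      (a₁ * b₂ - a₂ * b₁) • (x * y - y * x) := by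
  simp only [add_mul, mul_add, smul_mul_assoc, mul_smul_comm, smul_sub]
  module

theorem Km_le_L (π : A →ₐ[F] F) (x y : A) (hx : x ∈ Jm π) (hy : y ∈ Jm π)
    (hdec : ∀ j ∈ Jm π, ∃ (a₁ a₂ : F) (t : A), t ∈ Jm π * Jm π ∧ j = a₁ • x + a₂ • y + t) :
    Km F A ≤ Submodule.span F {x * y - y * x} ⊔ Jm π * (Jm π * Jm π) := by
  apply Submodule.span_le.2
  rintro _ ⟨a, b, rfl⟩
  rw [comm_eq π a b]
  obtain ⟨a₁, a₂, t, ht, h1⟩ := hdec _ (sub_mem_Jm π a)
  obtain ⟨b₁, b₂, t', ht', h2⟩ := hdec _ (sub_mem_Jm π b)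
  rw [h1, h2]
  have hu : a₁ • x + a₂ • y ∈ Jm π := add_mem (Submodule.smul_mem _ _ hx) (Submodule.smul_mem _ _ hy)
  have hu' : b₁ • x + b₂ • y ∈ Jm π :=
    add_mem (Submodule.smul_mem _ _ hx) (Submodule.smul_mem _ _ hy)
  have e : (a₁ • x + a₂ • y + t) * (b₁ • x + b₂ • y + t') -
      (b₁ • x + b₂ • y + t') * (a₁ • x + a₂ • y + t) =
      (a₁ * b₂ - a₂ * b₁) • (x * y - y * x) +
      (((a₁ • x + a₂ • y) * t' - t' * (a₁ • x + a₂ • y)) +
       (t * (b₁ • x + b₂ • y) - (b₁ • x + b₂ • y) * t) + (t * t' - t' * t)) := by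
    have e0 : ∀ u u' t t' : A, (u + t) * (u' + t') - (u' + t') * (u + t) =
        (u * u' - u' * u) + ((u * t' - t' * u) + (t * u' - u' * t) + (t * t' - t' * t)) := by
      intros
      noncomm_ring
    rw [e0, smul_comm_eq]
  rw [e]
  refine Submodule.add_mem_sup (Submodule.smul_mem _ _ (Submodule.mem_span_singleton_self _)) ?_
  refine add_mem (add_mem (sub_mem ?_ ?_) (sub_mem ?_ ?_)) (sub_mem ?_ ?_)
  · exact mem_J3_left π hu ht'
  · exact mem_J3_right π hu ht'
  · exact mem_J3_right π hu' ht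
  · exact mem_J3_left π hu' ht
  · exact mem_J3_left π (Jm_mul_le π ht) ht'
  · exact mem_J3_left π (Jm_mul_le π ht') ht

theorem uc_mem (π : A →ₐ[F] F) {u v w c : A} (hu : u ∈ Jm π) (hw : w ∈ Jm π)
    (huv : u * v ∈ Jm π * (Jm π * Jm π)) {β : F} (hβ : β ≠ 0)
    (hvw : v * w - β • c ∈ Jm π * (Jm π * Jm π)) :
    u * c ∈ Jm π * (Jm π * (Jm π * Jm π)) := by
  have h1 : (u * v) * w ∈ Jm π * (Jm π * (Jm π * Jm π)) := by
    have := Submodule.mul_mem_mul huv hw
    rwa [mul_assoc, mul_assoc] at this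
  have h2 : u * (v * w - β • c) ∈ Jm π * (Jm π * (Jm π * Jm π)) := Submodule.mul_mem_mul hu hvw
  have h3 : u * c = β⁻¹ • ((u * v) * w - u * (v * w - β • c)) := by
    rw [mul_sub, mul_smul_comm, mul_assoc, sub_sub_cancel, smul_smul, inv_mul_cancel₀ hβ, one_smul]
  rw [h3]
  exact Submodule.smul_mem _ _ (sub_mem h1 h2)

theorem xc_mem (π : A →ₐ[F] F) {x y c : A} (hx : x ∈ Jm π) (hy : y ∈ Jm π) (a b : F)
    (h1 : x * x - a • c ∈ Jm π * (Jm π * Jm π)) (h2 : x * y - b • c ∈ Jm π * (Jm π * Jm π))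
    (h3 : y * x - (b - 1) • c ∈ Jm π * (Jm π * Jm π)) :
    x * c ∈ Jm π * (Jm π * (Jm π * Jm π)) := by
  by_cases ha : a = 0
  · subst ha
    rw [zero_smul, sub_zero] at h1
    by_cases hb : b = 0
    · subst hb
      rw [zero_smul, sub_zero] at h2
      exact uc_mem π (v := y) (w := x) hx hx h2 (β := 0 - 1) (by simp) h3
    · exact uc_mem π (v := x) (w := y) hx hy h1 hb h2
  · refine uc_mem π (v := b • x - a • y) (w := x) hx hx ?_ ha ?_
    · have e : x * (b • x - a • y) = b • (x * x - a • c) - a • (x * y - b • c) := by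
        simp only [mul_sub, mul_smul_comm, smul_sub]
        module
      rw [e]
      exact sub_mem (Submodule.smul_mem _ _ h1) (Submodule.smul_mem _ _ h2)
    · have e : (b • x - a • y) * x - a • c = b • (x * x - a • c) - a • (y * x - (b - 1) • c) := by
        simp only [sub_mul, smul_mul_assoc, smul_sub]
        module
      rw [e]
      exact sub_mem (Submodule.smul_mem _ _ h1) (Submodule.smul_mem _ _ h3)

/-- **Külshammer**: a local symmetric algebra whose centre has dimension `≤ 4` is commutative. -/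
theorem R4 [FiniteDimensional F A] {lam : A →ₗ[F] F} (h : IsSymForm lam) (π : A →ₐ[F] F)
    (hJ : ∀ x, π x = 0 ↔ x ∈ Ring.jacobson A) (hZ : finrank F (Subalgebra.center F A) ≤ 4) :
    ∀ x y : A, x * y = y * x := by
  by_contra hnc
  obtain ⟨n, hn⟩ := exists_pow_eq_bot π hJ
  set J := Jm π with hJdef
  have hRI1 : ∀ m ∈ J, ∀ b, m * b ∈ J := fun m hm b => Jm_mul_right π hm b
  have hRI2 : ∀ m ∈ J * J, ∀ b, m * b ∈ J * J := ri_mul J J hRI1
  have hRI3 : ∀ m ∈ J * (J * J), ∀ b, m * b ∈ J * (J * J) := ri_mul J (J * J) hRI2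
  have hK2 : Km F A ≤ J * J := Km_le_J2 π
  have hKA := finrank_le_Km h hZ
  have hAJ : finrank F A = finrank F J + 1 := finrank_eq_Jm π
  have hJJ : J * J ≤ J := Jm_mul_le π
  have hJ2ne : J * J ≠ ⊥ := by
    intro h0
    apply hnc
    intro x y
    have := hK2 (comm_mem_Km x y)
    rw [h0, Submodule.mem_bot] at this
    exact sub_eq_zero.1 this
  obtain ⟨z2, hz2, hlz2⟩ := exists_lam_ne h _ hRI2 hJ2ne
  have c1 := finrank_Km_lt h _ hK2 hz2 hlz2
  -- `dim J / J² ≤ 2`
  obtain ⟨x, hx, hx'⟩ := exists_sup_span (J * J) J hJJ 1 (by omega)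
  have hle1 : J * J ⊔ Submodule.span F {x} ≤ J :=
    sup_le hJJ ((Submodule.span_singleton_le_iff_mem _ _).2 hx)
  obtain ⟨y, hy, hy'⟩ := exists_sup_span (J * J ⊔ Submodule.span F {x}) J hle1 0 hx'
  have hle2 : J * J ⊔ Submodule.span F {x} ⊔ Submodule.span F {y} ≤ J :=
    sup_le hle1 ((Submodule.span_singleton_le_iff_mem _ _).2 hy)
  have hJeq : J * J ⊔ Submodule.span F {x} ⊔ Submodule.span F {y} = J :=
    Submodule.eq_of_le_of_finrank_le hle2 (by omega)
  have hdec : ∀ j ∈ J, ∃ (a₁ a₂ : F) (t : A), t ∈ J * J ∧ j = a₁ • x + a₂ • y + t := by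
    intro j hj
    rw [← hJeq] at hj
    obtain ⟨u, hu, v, hv, rfl⟩ := Submodule.mem_sup.1 hj
    obtain ⟨t, ht, w, hw, rfl⟩ := Submodule.mem_sup.1 hu
    obtain ⟨a₁, rfl⟩ := Submodule.mem_span_singleton.1 hw
    obtain ⟨a₂, rfl⟩ := Submodule.mem_span_singleton.1 hv
    exact ⟨a₁, a₂, t, ht, by abel⟩
  -- `dim J / J² ≥ 2`
  have r2' : finrank F (J * J : Submodule F A) + 2 ≤ finrank F J := by
    by_contra hlt
    push Not at hlt
    obtain ⟨x', hx1, hx2⟩ := exists_sup_span (J * J) J hJJ 0 (by omega)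
    have hle : J * J ⊔ Submodule.span F {x'} ≤ J :=
      sup_le hJJ ((Submodule.span_singleton_le_iff_mem _ _).2 hx1)
    have heq := Submodule.eq_of_le_of_finrank_le hle (by omega)
    apply hnc
    apply comm_of_gen π hn {x'}
    · intro a ha b hb
      rw [Set.mem_singleton_iff] at ha hb
      rw [ha, hb]
    · rw [sup_comm]
      exact heq.ge
  set c := x * y - y * x with hc
  have hcJ2 : c ∈ J * J :=
    sub_mem (Submodule.mul_mem_mul hx hy) (Submodule.mul_mem_mul hy hx)
  have hc0 : c ≠ 0 := by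
    intro h0
    have hxy : x * y = y * x := sub_eq_zero.1 h0
    apply hnc
    apply comm_of_gen π hn {x, y}
    · intro a ha b hb
      rcases ha with rfl | ha <;> rcases hb with rfl | hb
      · rfl
      · rw [Set.mem_singleton_iff.1 hb, hxy]
      · rw [Set.mem_singleton_iff.1 ha, hxy]
      · rw [Set.mem_singleton_iff.1 ha, Set.mem_singleton_iff.1 hb]
    · rw [Submodule.span_insert, sup_comm, ← sup_assoc]
      exact hJeq.ge
  have hKL : Km F A ≤ Submodule.span F {c} ⊔ J * (J * J) := Km_le_L π x y hx hy hdec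
  have hlc : lam c = 0 := lam_Km h c (comm_mem_Km x y)
  have hJ3ne : J * (J * J) ≠ ⊥ := by
    intro h0
    apply hc0
    apply h.nondeg
    intro b
    have e : c * b = π b • c + c * (b - algebraMap F A (π b)) := by
      rw [mul_sub, ← Algebra.commutes, ← Algebra.smul_def]
      abel
    have h1 : c * (b - algebraMap F A (π b)) ∈ J * (J * J) :=
      mem_J3_right π (sub_mem_Jm π b) hcJ2
    rw [h0, Submodule.mem_bot] at h1
    rw [e, h1, add_zero, map_smul, hlc, smul_zero]
  obtain ⟨z3, hz3, hlz3⟩ := exists_lam_ne h _ hRI3 hJ3ne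
  have c2 : finrank F (Km F A) + 1 ≤
      finrank F (Submodule.span F {c} ⊔ J * (J * J) : Submodule F A) :=
    finrank_Km_lt h _ hKL (Submodule.mem_sup_right hz3) hlz3
  have hLJ2 : Submodule.span F {c} ⊔ J * (J * J) ≤ J * J :=
    sup_le ((Submodule.span_singleton_le_iff_mem _ _).2 hcJ2) (mul_le_mul' le_rfl hJJ)
  have hLeq : Submodule.span F {c} ⊔ J * (J * J) = J * J :=
    Submodule.eq_of_le_of_finrank_le hLJ2 (by omega)
  have hcoef : ∀ t ∈ J * J, ∃ γ : F, t - γ • c ∈ J * (J * J) := by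
    intro t ht
    rw [← hLeq] at ht
    obtain ⟨u, hu, v, hv, rfl⟩ := Submodule.mem_sup.1 ht
    obtain ⟨γ, rfl⟩ := Submodule.mem_span_singleton.1 hu
    exact ⟨γ, by simpa using hv⟩
  obtain ⟨a, ha⟩ := hcoef (x * x) (Submodule.mul_mem_mul hx hx)
  obtain ⟨b, hb⟩ := hcoef (x * y) (Submodule.mul_mem_mul hx hy)
  obtain ⟨d, hd⟩ := hcoef (y * y) (Submodule.mul_mem_mul hy hy)
  have hyx : y * x - (b - 1) • c ∈ J * (J * J) := by
    have e : y * x - (b - 1) • c = x * y - b • c := by
      rw [sub_smul, one_smul, hc]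
      abel
    rwa [e]
  have hxc := xc_mem π hx hy a b ha hb hyx
  have hyc : y * c ∈ J * (J * (J * J)) := by
    have h1 := xc_mem π (x := y) (y := x) (c := -c) hy hx (-d) (1 - b)
      (by rw [smul_neg, neg_smul, neg_neg]; exact hd)
      (by
        have e : y * x - (1 - b) • -c = y * x - (b - 1) • c := by
          rw [smul_neg, ← neg_smul, neg_sub]
        rw [e]; exact hyx)
      (by
        have e : x * y - (1 - b - 1) • -c = x * y - b • c := by
          rw [smul_neg, ← neg_smul]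
          congr 2
          ring
        rw [e]; exact hb)
    rw [mul_neg] at h1
    simpa using neg_mem h1
  have hJ34 : J * (J * J) ≤ J * (J * J) * J := by
    rw [mul_assoc, mul_assoc]
    apply Submodule.mul_le.2
    intro m hm t ht
    obtain ⟨m₁, m₂, m', hm', rfl⟩ := hdec m hm
    obtain ⟨γ, hγ⟩ := hcoef t ht
    have e : (m₁ • x + m₂ • y + m') * t = (m₁ * γ) • (x * c) + (m₂ * γ) • (y * c) + γ • (m' * c)
        + (m₁ • x + m₂ • y + m') * (t - γ • c) := by
      simp only [add_mul, mul_sub, smul_mul_assoc, mul_smul_comm]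
      module
    rw [e]
    refine add_mem (add_mem (add_mem (Submodule.smul_mem _ _ hxc) (Submodule.smul_mem _ _ hyc))
      (Submodule.smul_mem _ _ ?_)) (Submodule.mul_mem_mul hm hγ)
    have := Submodule.mul_mem_mul hm' hcJ2
    rwa [mul_assoc] at this
  exact hJ3ne (eq_bot_of_le_mul hn hJ34)

end Cfsg.Agent.Lib.Helper73.SymAlgR4
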