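import Mathlib
import Cfsg.Agent.Lib.Helper15.Ward.Defs

/-! # Ward farm (S3796), piece E2: fixed points in homomorphic images -/

set_option autoImplicit false

namespace Cfsg.Agent.Lib.Helper73.Ward

open Subgroup Cfsg.Agent.Lib.Helper22

theorem map_inf_centralizer_map' {Γ Γ' : Type*} [Group Γ] [Finite Γ] [Group Γ'] {p : ℕ}
    [Fact p.Prime] (f : Γ →* Γ') (G B : Subgroup Γ) (hB : IsPGroup p B) (hG : ¬ p ∣ Nat.card G)
    (hBG : B ≤ normalizer (G : Set Γ)) :
    G.map f ⊓ centralizer ((B.map f : Subgroup Γ') : Set Γ') =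
      (G ⊓ centralizer (B : Set Γ)).map f := by
  have hGK : ¬ p ∣ Nat.card (G ⊓ f.ker : Subgroup Γ) := fun h =>
    hG (h.trans (Subgroup.card_dvd_of_le inf_le_left))
  apply le_antisymm
  · intro y hy
    rw [mem_inf] at hy
    obtain ⟨⟨x, hx, rfl⟩, hc⟩ := hy
    obtain ⟨n, hn, hcn⟩ := exists_fixed_in_coset B (G ⊓ f.ker) hB hGK
      (le_normalizer_inf hBG le_normalizer_of_normal) x (by
        intro a ha
        rw [mem_inf]
        refine ⟨mul_mem (inv_mem hx) (le_normalizer_iff.mp hBG a ha x hx), ?_⟩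
        have h1 := mem_centralizer_iff.mp hc (f a) (mem_map_of_mem _ ha)
        rw [MonoidHom.mem_ker]
        have h2 : f (x⁻¹ * (a * x * a⁻¹)) = (f x)⁻¹ * (f a * f x) * (f a)⁻¹ := by
          simp [mul_assoc]
        rw [h2, h1]
        group)
    rw [mem_inf] at hn
    refine ⟨x * n, mem_inf.mpr ⟨mul_mem hx hn.1, hcn⟩, ?_⟩
    rw [map_mul]
    have : f n = 1 := hn.2
    rw [this, mul_one]
  · rintro _ ⟨x, hx, rfl⟩
    rw [SetLike.mem_coe, mem_inf] at hx
    rw [mem_inf]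
    refine ⟨mem_map_of_mem _ hx.1, ?_⟩
    rw [mem_centralizer_iff]
    rintro _ ⟨a, ha, rfl⟩
    rw [← map_mul, ← map_mul, mem_centralizer_iff.mp hx.2 a ha]

end Cfsg.Agent.Lib.Helper73.Ward
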